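/-
Symmetric groups on small hearts of permutation modules, as isometry groups.
-/
import Cfsg.Prelude.Def_ClassicalGeometry
import Cfsg.Agent.Lib.ClassicalLinear.BlockHom

set_option autoImplicit false

open Matrix

namespace CfsgLib.SmallIso

variable {K : Type} [Field K] {α : Type} [Fintype α] [DecidableEq α] {k : Type} [Fintype k]
  [DecidableEq k]

/-- The matrix of a permutation on the heart, read off by `E` and `P`. -/
def heartMat (E : Matrix α k K) (P : Matrix k α K) (σ : Equiv.Perm α) : Matrix k k K :=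
  P * E.submatrix σ id

/-- A permutation representation preserving a form on the heart. -/
theorem exists_isometry_hom (E : Matrix α k K) (P : Matrix k α K) (Q : (k → K) → K) (a₀ : α)
    (hPE : P * E = 1) (hP1 : P *ᵥ (fun _ => 1) = 0)
    (hswap : ∀ i j a l, E (Equiv.swap i j a) l = (E * heartMat E P (Equiv.swap i j)) a l +
      (E (Equiv.swap i j a₀) l - (E * heartMat E P (Equiv.swap i j)) a₀ l))
    (hQ : ∀ i j v, Q (heartMat E P (Equiv.swap i j) *ᵥ v) = Q v) :
    ∃ φ : Equiv.Perm α →* Cfsg.isometryGroup K Q, ∀ g : Equiv.Perm α,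
      ((φ g : Matrix.GeneralLinearGroup k K) : Matrix k k K) = heartMat E P g.symm ∧
      ∃ c : k → K, ∀ a l, E (g.symm a) l
        = (E * ((φ g : Matrix.GeneralLinearGroup k K) : Matrix k k K)) a l + c l := by
  obtain ⟨ρ, hρ⟩ := CfsgLib.ClassicalLinear.exists_linear_hom (MonoidHom.id (Equiv.Perm α)) E P hPE
    hP1 Equiv.Perm.mclosure_isSwap (by
      rintro g ⟨i, j, -, rfl⟩
      exact ⟨_, _, hswap i j⟩)
  have hP1' : ∀ i, ∑ a, P i a = 0 := fun i => by
    simpa [mulVec, dotProduct] using congrFun hP1 i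
  have hM : ∀ g : Equiv.Perm α, (ρ g : Matrix k k K) = heartMat E P g.symm := by
    intro g
    obtain ⟨c, hc⟩ := hρ g
    have : E.submatrix g.symm id = E * (ρ g : Matrix k k K) + Matrix.of (fun _ i => c i) := by
      ext a i; simpa using hc a i
    rw [heartMat, this, Matrix.mul_add, ← Matrix.mul_assoc, hPE, Matrix.one_mul]
    ext i j
    simp [Matrix.mul_apply, ← Finset.sum_mul, hP1']
  have hmem : ∀ g, ρ g ∈ Cfsg.isometryGroup K Q := by
    intro g
    have hg : g ∈ Submonoid.closure {σ : Equiv.Perm α | σ.IsSwap} := by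
      rw [Equiv.Perm.mclosure_isSwap]; trivial
    induction hg using Submonoid.closure_induction with
    | mem g hg =>
      obtain ⟨i, j, -, rfl⟩ := hg
      intro u v
      show Q ((ρ (Equiv.swap i j) : Matrix k k K) *ᵥ u) = Q u
      rw [hM, Equiv.symm_swap]
      exact hQ i j u
    | one => rw [map_one]; exact one_mem _
    | mul g h _ _ hg hh => rw [map_mul]; exact mul_mem hg hh
  exact ⟨ρ.codRestrict _ hmem, fun g => ⟨hM g, hρ g⟩⟩

/-- Faithfulness from the rows of `E`. -/
theorem injective_of_rows (E : Matrix α k K) {Q : (k → K) → K}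
    (φ : Equiv.Perm α →* Cfsg.isometryGroup K Q)
    (hφ : ∀ g : Equiv.Perm α, ∃ c : k → K, ∀ a l, E (g.symm a) l
      = (E * ((φ g : Matrix.GeneralLinearGroup k K) : Matrix k k K)) a l + c l)
    (htrans : ∀ c : k → K, ¬ (∀ a, ∃ b, ((fun i => E b i) = fun i => E a i + c i)) ∨ c = 0)
    (hrows : ∀ a b : α, ¬ ((fun i => E a i) = fun i => E b i) ∨ a = b) :
    Function.Injective φ := by
  refine (injective_iff_map_eq_one _).2 fun g hg => ?_
  obtain ⟨c, hc⟩ := hφ g
  have h1 : ((φ g : Matrix.GeneralLinearGroup k K) : Matrix k k K) = 1 := by rw [hg]; rfl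
  simp only [h1, Matrix.mul_one] at hc
  have hc0 : c = 0 := (htrans c).resolve_left
    (not_not.2 fun a => ⟨g.symm a, funext fun i => hc a i⟩)
  refine Equiv.ext fun b => ?_
  have h := hc (g b)
  simp only [Equiv.symm_apply_apply, hc0, Pi.zero_apply, add_zero] at h
  exact ((hrows _ _).resolve_left (not_not.2 (funext h))).symm

/-- Transport of an isometry group along an isomorphism of fields. -/
def isoCongr {F : Type*} {L : Type*} [Field F] [Field L] {ι : Type} [Fintype ι] [DecidableEq ι] (e : F ≃+* L)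
    (Q : (ι → F) → F) (Q' : (ι → L) → L) (h : ∀ v, Q' (fun i => e (v i)) = e (Q v)) :
    Cfsg.isometryGroup F Q ≃* Cfsg.isometryGroup L Q' :=
  let f : Matrix.GeneralLinearGroup ι F ≃* Matrix.GeneralLinearGroup ι L :=
    Units.mapEquiv e.mapMatrix.toMulEquiv
  have hf : ∀ (g : Matrix.GeneralLinearGroup ι F) (v : ι → F),
      ((f g : Matrix.GeneralLinearGroup ι L) : Matrix ι ι L) *ᵥ (fun i => e (v i))
        = fun i => e (((g : Matrix ι ι F) *ᵥ v) i) := fun g v => by
    funext i
    simp [f, Matrix.mulVec, dotProduct, map_sum, map_mul]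
  have hmem : ∀ g : Matrix.GeneralLinearGroup ι F,
      g ∈ Cfsg.isometryGroup F Q ↔ f g ∈ Cfsg.isometryGroup L Q' := fun g => by
    constructor
    · intro hg u v
      show Q' (((f g : Matrix.GeneralLinearGroup ι L) : Matrix ι ι L) *ᵥ u) = Q' u
      obtain ⟨u, rfl⟩ : ∃ w : ι → F, (fun i => e (w i)) = u :=
        ⟨fun i => e.symm (u i), funext fun i => e.apply_symm_apply _⟩
      rw [hf, h, h]
      exact congrArg e (hg u u)
    · intro hg u v
      show Q ((g : Matrix ι ι F) *ᵥ u) = Q u
      apply e.injective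
      rw [← h, ← h, ← hf]
      exact hg _ (fun i => e (v i))
  { toFun := fun g => ⟨f g, (hmem _).1 g.2⟩
    invFun := fun g => ⟨f.symm g, (hmem _).2 (by rw [f.apply_symm_apply]; exact g.2)⟩
    left_inv := fun g => Subtype.ext (f.symm_apply_apply _)
    right_inv := fun g => Subtype.ext (f.apply_symm_apply _)
    map_mul' := fun a b => Subtype.ext (map_mul f a.1 b.1) }

end CfsgLib.SmallIso
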